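import Cfsg.Agent.Lib.ToddCox.ONC1.P0
set_option autoImplicit false
set_option maxRecDepth 100000
namespace Cfsg.Agent.Lib.ToddCox.ONC1
theorem covered : Covered Eo inv W isH 26104 78561 := (Covered.trans (Covered.trans (Covered.trans (Covered.trans c0 (Covered.trans c1 c2)) (Covered.trans c3 (Covered.trans c4 c5))) (Covered.trans (Covered.trans c6 (Covered.trans c7 c8)) (Covered.trans (Covered.trans c9 c10) (Covered.trans c11 c12)))) (Covered.trans (Covered.trans (Covered.trans c13 (Covered.trans c14 c15)) (Covered.trans (Covered.trans c16 c17) (Covered.trans c18 c19))) (Covered.trans (Covered.trans c20 (Covered.trans c21 c22)) (Covered.trans (Covered.trans c23 c24) (Covered.trans c25 c26)))))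
theorem links : LinksOK Eo cF (2 * nEv) N ys 0 26068 := (LinksOK.trans (LinksOK.trans (LinksOK.trans (LinksOK.trans k0 (LinksOK.trans k1 k2)) (LinksOK.trans k3 (LinksOK.trans k4 k5))) (LinksOK.trans (LinksOK.trans k6 (LinksOK.trans k7 k8)) (LinksOK.trans (LinksOK.trans k9 k10) (LinksOK.trans k11 k12)))) (LinksOK.trans (LinksOK.trans (LinksOK.trans k13 (LinksOK.trans k14 k15)) (LinksOK.trans (LinksOK.trans k16 k17) (LinksOK.trans k18 k19))) (LinksOK.trans (LinksOK.trans k20 (LinksOK.trans k21 k22)) (LinksOK.trans (LinksOK.trans k23 k24) (LinksOK.trans k25 k26)))))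
theorem defs : ∀ c, c < nDef → chkDef Eo inv c = true := defs_of_bits 26104 13 4 (by norm_num) (by
  intro j hj
  interval_cases j
  · exact d0
  · exact d1
  · exact d2
  · exact d3
  )
theorem words : ∀ j, j < nW → wordsOK W (relR Rb inv) inv sp j = true := allBelow_spec (by norm_num [nW]) wordsGood
end Cfsg.Agent.Lib.ToddCox.ONC1
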